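import Cfsg.Agent.Sz2.Hig

/-! Higman's theorem on Suzuki 2-groups for semilinear groups of automorphisms, second part: `Sz.main`,
`Sz.center_eq`, `Sz.sq_mem_Om`. Adapted from `Rank1/Higman`. -/

set_option autoImplicit false

namespace Cfsg.Agent.Sz2

open Subgroup Cfsg.Agent.Invol Cfsg.Agent.Rank1
open scoped commutatorElement

variable {P : Type*} [Group P] {Y : Subgroup (MulAut P)} {F : Type*} [Field F] [Fintype F] [Finite P]

namespace Sz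

variable {D : SL Y F} {z : P → F} (h : Sz D z) [CharP F 2]
include h

/-- The structure of a non-abelian cover of an abelian invariant normal subgroup of exponent at least four. -/
theorem main {A C : Subgroup P} [hAn : A.Normal] (hA : InvY Y A) (hc : Comm A) (hC : Cov Y A C)
    (hnc : ¬ Comm C) (h2 : sqS A ≠ ⊥) :
    sqS A = Om P ∧ (∀ u ∈ C, u * u ∈ Om P) ∧ (∀ u ∈ C, ∀ a ∈ A, ⁅u, a⁆ = 1 → u ∈ A ∨ a ∈ Om P) ∧
      ∀ u ∈ C, ∀ a ∈ A, ∀ a' ∈ A, ⁅u, a⁆ = a * a → ⁅u, a'⁆ = a' * a' → a * a ≠ 1 → a' * a' ≠ 1 →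
        a * a = a' * a' := by
  have hCn := hC.normal
  have hA1 : A ≠ ⊥ := fun e => h2 (eq_bot_iff.2 (e ▸ sqS_le A))
  have hO := h.Om_le hA hA1
  obtain ⟨k, hk⟩ := h.coord_sqS (sqS A) hA.sqS hc.sqS h2
  have hg := h.coord_sq hA hc hk
  have hcs := h.comm_mem_sqS hA hc
  have b1 : ∀ u ∈ C, ∀ u' ∈ C, ∀ a ∈ A, k ⁅u * u', a⁆ = k ⁅u, a⁆ + k ⁅u', a⁆ := by
    intro u _ u' _ a ha
    rw [comm_mul_left, hk.map_mul _ (mul_mem (hcs _ (comm_mem_right _ ha)) (hcs _ ha)) _ (hcs _ ha),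
      hk.map_mul _ (hcs _ (comm_mem_right _ ha)) _ (hcs _ ha),
      hk.zero (h.comm_mem_sqS2 hA hc _ (hcs _ ha)), zero_add, add_comm]
  have b2 : ∀ u ∈ C, ∀ a ∈ A, ∀ a' ∈ A, k ⁅u, a * a'⁆ = k ⁅u, a⁆ + k ⁅u, a'⁆ := by
    intro u _ a ha a' ha'
    rw [hc.comm_mul u ha ha', hk.map_mul _ (hcs _ ha) _ (hcs _ ha')]
  have b3 : ∀ u ∈ A, ∀ a ∈ A, k ⁅u, a⁆ = 0 := fun u hu a ha => by
    rw [(hc.commute hu ha).commutator_eq, hk.map_one]
  have b4 : ∀ u ∈ C, ∀ a ∈ sqS A, k ⁅u, a⁆ = 0 := fun u _ a ha =>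
    hk.zero (h.comm_mem_sqS2 hA hc _ ha)
  have b5 : ∀ y : Y, ∀ u ∈ C, ∀ a ∈ A,
      k ⁅(y : MulAut P) u, (y : MulAut P) a⁆ = D.a y * D.s y (k ⁅u, a⁆) := fun y u _ a ha => by
    rw [← map_commutatorElement, hk.map_y y _ (hcs _ ha)]
  have E := Crd.biadd h.hq h.fp hC.inv hC.lt.le hC.min hg (fun u a => k ⁅u, a⁆) b1 b2 b3 b4 b5
  have E1 : (∃ u ∈ C, ∃ a ∈ A, k ⁅u, a⁆ ≠ 0) → ∀ {u a : P}, u ∈ C → a ∈ A → k ⁅u, a⁆ = 0 →
      u ∈ A ∨ a ∈ sqS A := fun hne _ _ hu ha => (E hne).1 _ hu _ ha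
  have E2 : ∀ {u a a' : P}, u ∈ C → a ∈ A → a' ∈ A → k ⁅u, a⁆ = k (a * a) → k ⁅u, a'⁆ = k (a' * a') →
      k (a * a) ≠ 0 → k (a' * a') ≠ 0 → k (a * a) = k (a' * a') := fun hu ha ha' e e' h0 h0' =>
    (E ⟨_, hu, _, ha, e ▸ h0⟩).2 _ hu _ ha _ ha' e e' h0 h0'
  obtain ⟨u₀, hu₀, hu₀A⟩ := SetLike.exists_of_lt hC.lt
  by_cases hsq : ∀ u ∈ C, u * u ∈ sqS A
  · -- the squares of `C` lie in `A²`
    have hne : ∃ u ∈ C, ∃ a ∈ A, k ⁅u, a⁆ ≠ 0 := by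
      by_contra hh
      push Not at hh
      exact hu₀A (h.lemma2 hc hO (hsq u₀ hu₀) fun a ha =>
        (hk.eq_zero _ (hcs _ ha)).1 (hh u₀ hu₀ a ha))
    have h4 : sqS (sqS A) = ⊥ := by
      by_contra h4
      have hO4 := h.Om_le hA.sqS.sqS h4
      have key : ∀ a ∈ A, k ⁅u₀, a⁆ = k (a * a) := by
        intro a ha
        obtain ⟨b, hb, e⟩ := hc.mem_sqS.1 (hcs u₀ ha)
        have e1 : ⁅u₀ * u₀, a⁆ = 1 := (hc.commute (hC.sq u₀ hu₀) ha).commutator_eq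
        rw [comm_mul_left, ← e, hc.comm_mul u₀ hb hb, mul_assoc,
          ← hc.mul_sq (comm_mem_right u₀ hb) (mul_mem hb hb)] at e1
        have e2 := hk.zero (hO4 (mem_Om_of e1))
        rw [hk.map_mul _ (hcs _ hb) _ (sq_mem_sqS hb), CharTwo.add_eq_zero, ← congrArg k e.symm] at e2
        have e3 : k ⁅u₀, a * b⁆ = 0 := by
          rw [b2 _ hu₀ _ ha _ hb, e2, CharTwo.add_self_eq_zero]
        have e4 := hg.zero ((E1 hne hu₀ (mul_mem ha hb) e3).resolve_left hu₀A)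
        have e5 := hg.map_mul _ ha _ hb
        rw [e4, eq_comm, CharTwo.add_eq_zero] at e5
        rw [e5, e]
      obtain ⟨x, hx0, hx1⟩ := Suz.exists_two_ne h.hq
      obtain ⟨a, ha, ea⟩ := hg.surj x
      obtain ⟨b, hb, eb⟩ := hg.surj 1
      have := E2 hu₀ ha hb (key a ha) (key b hb) (by rw [ea]; exact hx0) (by rw [eb]; exact one_ne_zero)
      exact hx1 (ea.symm.trans (this.trans eb))
    have h5 : sqS A = Om P :=
      le_antisymm (fun y hy => mem_Om_of (h4.le (sq_mem_sqS hy))) (h.Om_le hA.sqS h2)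
    refine ⟨h5, fun u hu => h5 ▸ hsq u hu, fun u hu a ha e => ?_,
      fun u hu a ha a' ha' e e' k1 k2 => ?_⟩
    · rw [← h5]
      exact E1 hne hu ha (by simp only [e, hk.map_one])
    · have := E2 hu ha ha' (by simp only [e]) (by simp only [e'])
        (fun e3 => k1 (h4.le ((hk.eq_zero _ (sq_mem_sqS ha)).1 e3)))
        (fun e3 => k2 (h4.le ((hk.eq_zero _ (sq_mem_sqS ha')).1 e3)))
      exact inv_mul_eq_one.1 (h4.le ((hk.eq_iff (sq_mem_sqS ha) (sq_mem_sqS ha')).1 this))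
  · exfalso
    push Not at hsq
    obtain ⟨u₁, hu₁, hu₁s⟩ := hsq
    have hz0 : ∀ u ∈ C, ∀ a ∈ A, k ⁅u, a⁆ = 0 := by
      by_contra hh
      push Not at hh
      rcases E1 hh hu₁ (hC.sq _ hu₁) (by
        simp only [((Commute.refl u₁).mul_right (Commute.refl u₁)).commutator_eq, hk.map_one])
        with e | e
      · exact hu₁s (sq_mem_sqS e)
      · exact hu₁s e
    have hCA : ∀ u ∈ C, ∀ v ∈ C, ⁅u, v⁆ ∈ sqS A := by
      intro u hu v hv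
      have hw := hC.comm u hu v
      rw [← hg.eq_zero _ hw]
      have e1 := hz0 v hv _ (hC.sq u hu)
      rw [← hk.map_inv (hcs _ (hC.sq u hu)), commutatorElement_inv, comm_mul_left, mul_assoc,
        hk.map_mul _ (hcs _ hw) _ (sq_mem_sqS hw), hz0 u hu _ hw, zero_add] at e1
      exact e1
    have a1 : ∀ u ∈ C, ∀ v ∈ C, k (u * v * (u * v) * (u * v * (u * v))) =
        k (u * u * (u * u)) + k (v * v * (v * v)) := by
      intro u hu v hv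
      have : u * v * (u * v) = u * u * (⁅u⁻¹, v⁆ * (v * v)) := by
        rw [commutatorElement_def]; group
      have h5 := hCA _ (inv_mem hu) _ hv
      have h6 := hg.map_mul _ (hC.sq u hu) _ (mul_mem (hg.le h5) (hC.sq v hv))
      have h7 := hg.map_mul _ (hg.le h5) _ (hC.sq v hv)
      have h8 := hg.zero h5
      rw [this, h6, h7, h8, zero_add]
    have a2 : ∀ y : Y, ∀ u ∈ C, k ((y : MulAut P) u * (y : MulAut P) u *
        ((y : MulAut P) u * (y : MulAut P) u)) = D.a y * D.s y (k (u * u * (u * u))) := by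
      intro y u hu
      rw [← map_mul]; exact hg.map_y y _ (hC.sq u hu)
    have a3 : k (u₁ * u₁ * (u₁ * u₁)) ≠ 0 := fun e => hu₁s ((hg.eq_zero _ (hC.sq _ hu₁)).1 e)
    have a4 : ∀ a ∈ A, k (a * a * (a * a)) = 0 := fun a ha => hg.zero (sq_mem_sqS ha)
    have hf' : Crd D C A fun u => k (u * u * (u * u)) :=
      ⟨hC.inv, hC.lt.le, a1, fun u hu => ⟨hC.min.ker hC.inv hC.lt.le
        (f := fun u => k (u * u * (u * u))) a1 a4
        (fun y u hu e => by rw [a2 y u hu, e, map_zero, mul_zero]) ⟨u₁, hu₁, a3⟩ u hu, a4 u⟩, a2,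
        surj_of (f := fun u => k (u * u * (u * u))) hC.inv (by simp [hk.map_one]) a2 hu₁ a3⟩
    have hBA : ⁅C, C⁆ ≤ A := commutator_le.2 fun u hu v _ => hC.comm u hu v
    have hB1 : ⁅C, C⁆ ≠ ⊥ := fun e => hnc fun u hu v hv =>
      commutatorElement_eq_one_iff_mul_comm.1 (e.le (commutator_mem_commutator hu hv))
    have hBi := hC.inv.commutator hC.inv
    have hBc := hc.mono hBA
    obtain ⟨m, hm⟩ := h.coord_sqS _ hBi hBc hB1
    have hbs := h.comm_mem_sqS hBi hBc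
    have cm : ∀ {u v : P}, u ∈ C → v ∈ C → ⁅u, v⁆ ∈ ⁅C, C⁆ := commutator_mem_commutator
    have c1 : ∀ u ∈ C, ∀ u' ∈ C, ∀ v ∈ C, m ⁅u * u', v⁆ = m ⁅u, v⁆ + m ⁅u', v⁆ := by
      intro u hu u' hu' v hv
      rw [comm_mul_left, hm.map_mul _ (mul_mem (hm.le (hbs _ (cm hu' hv))) (cm hu' hv)) _ (cm hu hv),
        hm.map_mul _ (hm.le (hbs _ (cm hu' hv))) _ (cm hu' hv), hm.zero (hbs _ (cm hu' hv)), zero_add,
        add_comm]
    have c0 : ∀ u ∈ C, ∀ v ∈ C, m ⁅u, v⁆ = m ⁅v, u⁆ := fun u hu v hv => by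
      rw [← hm.map_inv (cm hu hv), commutatorElement_inv]
    have c2 : ∀ u ∈ C, ∀ v ∈ C, ∀ v' ∈ C, m ⁅u, v * v'⁆ = m ⁅u, v⁆ + m ⁅u, v'⁆ := by
      intro u hu v hv v' hv'
      rw [c0 _ hu _ (mul_mem hv hv'), c1 _ hv _ hv' _ hu, c0 _ hu _ hv, c0 _ hu _ hv']
    have hAC : A ≤ sqS C := by
      by_contra hh
      exact hu₁s (h.le_sqS hA hc hC.inv.sqS (lt_of_le_of_ne (sqS_le_iff.2 hC.sq)
        fun e => hh e.ge) (sq_mem_sqS hu₁))
    have c4 : ∀ u ∈ C, ∀ a ∈ A, m ⁅u, a⁆ = 0 := by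
      intro u hu a ha
      have : sqS C ≤ kerS C (fun v => m ⁅u, v⁆) (c2 u hu) := sqS_le_iff.2 fun v hv =>
        ⟨mul_mem hv hv, (c2 _ hu _ hv _ hv).trans (CharTwo.add_self_eq_zero _)⟩
      exact (this (hAC ha)).2
    have hne : ∃ u ∈ C, ∃ v ∈ C, m ⁅u, v⁆ ≠ 0 := by
      by_contra hh
      push Not at hh
      exact (h.sqS_lt hBc hB1).not_ge (commutator_le.2 fun u hu v hv =>
        (hm.eq_zero _ (cm hu hv)).1 (hh u hu v hv))
    rcases (Crd.biadd h.hq h.fp hC.inv hC.lt.le hC.min hf' (fun u v => m ⁅u, v⁆) c1 c2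
      (fun a ha v hv => by rw [c0 _ (hC.lt.le ha) _ hv, c4 _ hv _ ha]) c4
      (fun y u hu v hv => by rw [← map_commutatorElement, hm.map_y y _ (cm hu hv)]) hne).1 _ hu₀ _ hu₀
      (by simp [hm.map_one]) with e | e <;> exact hu₀A e

omit h in
theorem exists_max (N : Subgroup P) [N.Normal] (hN : InvY Y N) (hc : Comm N) :
    ∃ A : Subgroup P, N ≤ A ∧ A.Normal ∧ InvY Y A ∧ Comm A ∧ ∀ C, Cov Y A C → ¬ Comm C := by
  obtain ⟨A, h1, h2, h3⟩ := exists_maximal_ge_of_wellFoundedGT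
    (fun A : Subgroup P => A.Normal ∧ InvY Y A ∧ Comm A) N ⟨inferInstance, hN, hc⟩
  exact ⟨A, h1, h2.1, h2.2.1, h2.2.2, fun C hC hcc =>
    hC.lt.not_ge (h3 ⟨hC.normal, hC.inv, hcc⟩ hC.lt.le)⟩

theorem center_eq (hnc : ¬ Comm (⊤ : Subgroup P)) : center P = Om P := by
  refine le_antisymm ?_ (Om_le_center h.central)
  obtain ⟨A, h1, h2, h3, h4, h5⟩ := exists_max (Y := Y) (center P) (fun _ => inv_center)
    (fun a _ b hb => mem_center_iff.1 hb a)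
  obtain ⟨C, -, hC⟩ := exists_cov h.pg h3 invY_top (lt_top_iff_ne_top.2 (by rintro rfl; exact hnc h4))
  by_cases h6 : sqS A = ⊥
  · exact fun a ha => mem_Om_of (h6.le (sq_mem_sqS (h1 ha)))
  obtain ⟨-, -, k3, -⟩ := h.main h3 h4 hC (h5 C hC) h6
  obtain ⟨u, hu, huA⟩ := SetLike.exists_of_lt hC.lt
  exact fun a ha => (k3 u hu a (h1 ha) (commutatorElement_eq_one_iff_mul_comm.2
    (mem_center_iff.1 ha u))).resolve_left huA

theorem sq_mem_Om (hnc : ¬ Comm (⊤ : Subgroup P)) (v : P) : v * v ∈ Om P := by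
  by_contra hv
  have hOn := h.normal_Om
  have hU : InvY Y (sqS (⊤ : Subgroup P)) := invY_top.sqS
  have hU1 : sqS (⊤ : Subgroup P) ≠ ⊥ := fun e =>
    hv (by rw [mem_bot.1 (e.le (sq_mem_sqS (mem_top v)))]; exact one_mem _)
  obtain ⟨N, hNU, hN⟩ := exists_cov h.pg invY_Om hU (lt_of_le_of_ne (h.Om_le hU hU1)
    fun e => hv (e.ge (sq_mem_sqS (mem_top v))))
  have cent : ∀ x : P, (∀ g, ⁅x, g⁆ ∈ Om P) → ∀ y ∈ sqS (⊤ : Subgroup P), ⁅y, x⁆ = 1 := by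
    intro x hx y hy
    have : sqS (⊤ : Subgroup P) ≤ centralizer {x} := sqS_le_iff.2 fun g _ => by
      rw [mem_centralizer_singleton]
      refine (commutatorElement_eq_one_iff_commute.1 ?_).symm
      rw [comm_mul_right, (h.commute_Om (hx g) g).commutator_eq, one_mul, h.mem_Om.1 (hx g)]
    exact (mem_centralizer_singleton.1 (this hy)).commutator_eq
  have hNn := hN.normal
  obtain ⟨A, h1, h2, h3, h4, h5⟩ := exists_max N hN.inv (fun a ha b hb =>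
    commutatorElement_eq_one_iff_mul_comm.1 (cent b (hN.comm b hb) a (hNU ha)))
  obtain ⟨n, hn, hnO⟩ := SetLike.exists_of_lt hN.lt
  have h6 : sqS A ≠ ⊥ := fun e => hnO (mem_Om_of (e.le (sq_mem_sqS (h1 hn))))
  obtain ⟨C, -, hC⟩ := exists_cov h.pg h3 invY_top (lt_top_iff_ne_top.2 (by rintro rfl; exact hnc h4))
  obtain ⟨k1, k2, k3, k4⟩ := h.main h3 h4 hC (h5 C hC) h6
  have hUA : sqS (⊤ : Subgroup P) ≤ A := by
    have hNA : N = A := by
      by_contra hne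
      exact hnO (k1 ▸ h.le_sqS h3 h4 hN.inv (lt_of_le_of_ne h1 hne) hn)
    by_contra hh
    obtain ⟨C', hC'U, hC'⟩ := exists_cov h.pg h3 hU (lt_of_le_of_ne (hNA ▸ hNU) fun e => hh e.ge)
    obtain ⟨-, -, l3, -⟩ := h.main h3 h4 hC' (h5 C' hC') h6
    obtain ⟨u, hu, huA⟩ := SetLike.exists_of_lt hC'.lt
    rcases l3 u hu n (h1 hn) (cent n (hN.comm n hn) u (hC'U hu)) with e | e
    · exact huA e
    · exact hnO e
  have hAO : ∀ g, ∀ a ∈ A, ⁅g, a⁆ ∈ Om P := fun g a ha => k1 ▸ h.comm_mem_sqS h3 h4 g ha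
  have hz := h.crd
  have hg : Crd D A (Om P) fun a => z (a * a) := by
    have := h.coord_sq h3 h4 (k := z) (by
      rw [k1, show sqS (Om P) = ⊥ from eq_bot_iff.2 (sqS_le_iff.2 fun a ha => h.mem_Om.1 ha)]
      exact hz)
    rwa [k1] at this
  set g : P → F := fun a => z (a * a) with hgdef
  have hO : Om P ≤ A := hg.le
  have g1 : ∀ u ∈ C, ∀ u' ∈ C, ∀ v, g ⁅u * u', v⁆ = g ⁅u, v⁆ + g ⁅u', v⁆ := by
    intro u hu u' hu' v
    have a1 := hC.comm u hu v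
    have a2 := hC.comm u' hu' v
    rw [comm_mul_left, hg.map_mul _ (mul_mem (hO (hAO _ _ a2)) a2) _ a1,
      hg.map_mul _ (hO (hAO _ _ a2)) _ a2, hg.zero (hAO _ _ a2), zero_add, add_comm]
  have g2 : ∀ u ∈ C, ∀ v v', g ⁅u, v * v'⁆ = g ⁅u, v⁆ + g ⁅u, v'⁆ := by
    intro u hu v v'
    have a1 := hC.comm u hu v
    have a2 := hC.comm u hu v'
    rw [comm_mul_right, hg.map_mul _ a1 _ (mul_mem (hO (hAO _ _ a2)) a2),
      hg.map_mul _ (hO (hAO _ _ a2)) _ a2, hg.zero (hAO _ _ a2), zero_add]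
  have g4 : ∀ u ∈ C, ∀ (y : Y) v, g ⁅(y : MulAut P) u, (y : MulAut P) v⁆ = D.a y * D.s y (g ⁅u, v⁆) :=
    fun u hu y v => by rw [← map_commutatorElement, hg.map_y y _ (hC.comm u hu v)]
  have g5 : ∀ u ∈ C, ∀ v v', g ⁅u, v⁆ ≠ 0 → g ⁅u, v'⁆ ≠ 0 → g ⁅u, v⁆ = g ⁅u, v'⁆ := by
    have key : ∀ u ∈ C, ∀ v : P, ⁅u, ⁅u, v⁆⁆ = ⁅u, v⁆ * ⁅u, v⁆ := by
      intro u hu v
      have e1 := (h.commute_Om (k2 u hu) v).symm.commutator_eq
      rw [comm_mul_left, mul_assoc, mul_eq_one_iff_eq_inv] at e1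
      rw [e1]
      exact inv_eq_of_mul_self (h.mem_Om.1 (hg.sq_mem (hC.comm u hu v)))
    intro u hu v v' e e'
    have := k4 u hu _ (hC.comm u hu v) _ (hC.comm u hu v') (key u hu v) (key u hu v')
      (fun e2 => e (by simp only [hgdef, e2, hz.map_one]))
      (fun e2 => e' (by simp only [hgdef, e2, hz.map_one]))
    simp only [hgdef, this]
  have hz0 : ∀ u ∈ C, ∀ v, g ⁅u, v⁆ = 0 := by
    intro u₀ hu₀ v₀
    by_contra h0
    obtain ⟨y, y1, y2⟩ := D.exists_lin h.hq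
    have hu₁ := hC.inv y u₀ hu₀
    have a0 : ∀ v, g ⁅(y : MulAut P) u₀, (y : MulAut P) v⁆ = D.a y * g ⁅u₀, v⁆ := fun v => by
      rw [g4 _ hu₀, y1]; rfl
    have a1 : D.a y * g ⁅u₀, v₀⁆ ≠ 0 := mul_ne_zero (D.a_ne y) h0
    have a2 : D.a y * g ⁅u₀, v₀⁆ ≠ g ⁅u₀, v₀⁆ := fun e => y2 ((mul_eq_right₀ h0).1 e)
    have v0 : ∀ v, g ⁅u₀, v⁆ = 0 ∨ g ⁅u₀, v⁆ = g ⁅u₀, v₀⁆ := fun v =>
      (eq_or_ne _ 0).imp_right fun e => g5 _ hu₀ _ _ e h0
    have v1 : ∀ v, g ⁅(y : MulAut P) u₀, v⁆ = 0 ∨ g ⁅(y : MulAut P) u₀, v⁆ = D.a y * g ⁅u₀, v₀⁆ := fun v =>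
      (eq_or_ne _ 0).imp_right fun e => (g5 _ hu₁ _ _ e (by rwa [a0])).trans (a0 _)
    have v2 : ∀ v v', g ⁅u₀, v⁆ + g ⁅(y : MulAut P) u₀, v⁆ ≠ 0 →
        g ⁅u₀, v'⁆ + g ⁅(y : MulAut P) u₀, v'⁆ ≠ 0 →
        g ⁅u₀, v⁆ + g ⁅(y : MulAut P) u₀, v⁆ = g ⁅u₀, v'⁆ + g ⁅(y : MulAut P) u₀, v'⁆ := by
      intro v v'
      rw [← g1 _ hu₀ _ hu₁, ← g1 _ hu₀ _ hu₁]
      exact g5 _ (mul_mem hu₀ hu₁) v v'
    have a3 : g ⁅u₀, v₀⁆ + D.a y * g ⁅u₀, v₀⁆ ≠ 0 := fun e => a2 (CharTwo.add_eq_zero.1 e).symm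
    have w : ∀ v, g ⁅u₀, v⁆ = 0 ↔ g ⁅(y : MulAut P) u₀, v⁆ = 0 := by
      intro v
      refine ⟨fun e => ?_, fun e => ?_⟩
      · refine (v1 v).resolve_right fun e' => ?_
        have := v2 v v₀
        rw [e, e', zero_add] at this
        rcases v1 v₀ with e2 | e2 <;> rw [e2] at this
        · rw [add_zero] at this; exact a2 (this a1 h0)
        · exact h0 (add_eq_right.1 (this a1 a3).symm)
      · refine (v0 v).resolve_right fun e' => ?_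
        have := v2 v ((y : MulAut P) v₀)
        rw [e, e', add_zero, a0] at this
        rcases v0 ((y : MulAut P) v₀) with e2 | e2 <;> rw [e2] at this
        · rw [zero_add] at this; exact a2 (this h0 a1).symm
        · exact a1 (add_eq_left.1 (this h0 a3).symm)
    obtain ⟨x, -, e⟩ := exists_eq_inv_mul (h.fp y y1 y2) inv_top (mem_top v₀)
    have a4 : g ⁅u₀, x⁻¹⁆ = g ⁅u₀, x⁆ := by
      have := g2 u₀ hu₀ x x⁻¹
      rw [mul_inv_cancel, commutatorElement_one_right, hg.map_one, eq_comm,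
        CharTwo.add_eq_zero] at this
      exact this.symm
    have a5 := w ((y : MulAut P) x)
    rw [a0, mul_eq_zero, or_iff_right (D.a_ne y)] at a5
    apply h0
    rw [e, g2 _ hu₀, a4, CharTwo.add_eq_zero]
    by_cases b1 : g ⁅u₀, x⁆ = 0
    · rw [b1, a5.2 b1]
    · exact g5 _ hu₀ _ _ b1 fun b2 => b1 (a5.1 b2)
  obtain ⟨m, hm, hmA⟩ := SetLike.exists_of_lt hC.lt
  have c1 : ⁅v⁻¹, m⁆ * (m * m) ∈ Om P := by
    refine mul_mem ?_ (k2 m hm)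
    rw [← commutatorElement_inv]
    exact inv_mem ((hg.eq_zero _ (hC.comm m hm _)).1 (hz0 m hm _))
  have c2 : v * m * (v * m) = v * v * (⁅v⁻¹, m⁆ * (m * m)) := by
    rw [commutatorElement_def]; group
  have c3 : Commute (v * m) (v * v) := by
    have := ((Commute.refl (v * m)).mul_right (Commute.refl (v * m))).mul_right
      (h.commute_Om c1 (v * m)).inv_right
    rwa [c2, mul_inv_cancel_right] at this
  have c4 : Commute m (v * v) := by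
    have := ((Commute.refl v).mul_right (Commute.refl v)).inv_left.mul_left c3
    rwa [inv_mul_cancel_left] at this
  rcases k3 m hm _ (hUA (sq_mem_sqS (mem_top v))) c4.commutator_eq with e | e
  · exact hmA e
  · exact hv e

end Sz

end Cfsg.Agent.Sz2
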