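import Mathlib.NumberTheory.Basic
import Mathlib.FieldTheory.Finite.Basic
import Mathlib.Tactic

/-! Arithmetic for subgroups of index `d ∣ n` in the multiplicative group of the field with `2 ^ n` elements:
`exps` (relations `1 + 2^(i+j) ≡ 2^j + 2^k`), `prime_dvd_of` (every prime divisor of `2^n - 1` divides the order). -/

set_option autoImplicit false

namespace Cfsg.Agent.Sz2

theorem two_pow_le_aux {a b c e : ℕ} (hab : a ≤ b) (hce : c ≤ e) (hac : a ≤ c)
    (h : 2 ^ a + 2 ^ b = 2 ^ c + 2 ^ e) : a = c ∧ b = e := by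
  obtain ⟨x, rfl⟩ := Nat.exists_eq_add_of_le hab
  obtain ⟨y, rfl⟩ := Nat.exists_eq_add_of_le hac
  obtain ⟨w, rfl⟩ := Nat.exists_eq_add_of_le hce
  have h1 : 1 + 2 ^ x = 2 ^ y + 2 ^ (y + w) := by
    apply Nat.eq_of_mul_eq_mul_left (Nat.two_pow_pos a)
    rw [mul_add, mul_add, ← pow_add, ← pow_add, ← pow_add, mul_one, ← add_assoc]
    exact h
  rcases y with _ | y
  · simp only [pow_zero, zero_add, add_right_inj] at h1
    have := Nat.pow_right_injective le_rfl h1
    omega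
  · exfalso
    have h2 := Nat.two_pow_pos y
    have h3 := Nat.two_pow_pos (y + w)
    rw [show y + 1 + w = (y + w) + 1 by ring, pow_succ, pow_succ] at h1
    rcases x with _ | x
    · simp at h1; omega
    · rw [pow_succ] at h1; omega

theorem two_pow_pair {a b c e : ℕ} (h : 2 ^ a + 2 ^ b = 2 ^ c + 2 ^ e) :
    (a = c ∧ b = e) ∨ (a = e ∧ b = c) := by
  rcases le_total a b with h1 | h1 <;> rcases le_total c e with h2 | h2
  · rcases le_total a c with h3 | h3
    · have := two_pow_le_aux h1 h2 h3 h; omega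
    · have := two_pow_le_aux h2 h1 h3 h.symm; omega
  · rcases le_total a e with h3 | h3
    · have := two_pow_le_aux h1 h2 h3 (by omega); omega
    · have := two_pow_le_aux h2 h1 h3 (by omega); omega
  · rcases le_total b c with h3 | h3
    · have := two_pow_le_aux h1 h2 h3 (by omega); omega
    · have := two_pow_le_aux h2 h1 h3 (by omega); omega
  · rcases le_total b e with h3 | h3
    · have := two_pow_le_aux h1 h2 h3 (by omega); omega
    · have := two_pow_le_aux h2 h1 h3 (by omega); omega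

/-- the finite check for small `n` -/
def chk (n d : ℕ) : Bool :=
  (List.range n).all fun i => (List.range n).all fun j => (List.range n).all fun k =>
    ((1 + 2 ^ (i + j)) % ((2 ^ n - 1) / d) != (2 ^ j + 2 ^ k) % ((2 ^ n - 1) / d)) || i == k ||
      2 ^ i % ((2 ^ n - 1) / d) == 1 % ((2 ^ n - 1) / d)

theorem chk_all : ((List.range 25).all fun n => (List.range 25).all fun d =>
    n % d != 0 || (2 ^ n - 1) % d != 0 || chk n d) = true := by decide +kernel

theorem five_le_pow {L : ℕ} (h : 5 ≤ L) : 5 * L + 5 ≤ 2 ^ L := by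
  induction L, h using Nat.le_induction with
  | base => norm_num
  | succ L hL ih => rw [pow_succ]; omega

theorem pow_modEq_mod {n m : ℕ} (h : 2 ^ n ≡ 1 [MOD m]) (p : ℕ) : 2 ^ p ≡ 2 ^ (p % n) [MOD m] := by
  conv_lhs => rw [← Nat.mod_add_div p n, pow_add, pow_mul]
  simpa using (Nat.ModEq.refl (2 ^ (p % n))).mul (h.pow (p / n))

theorem exps {n d m i j k : ℕ} (hd : d ∣ n) (hm : d * m + 1 = 2 ^ n) (hi : i < n) (hj : j < n)
    (hk : k < n) (h : 1 + 2 ^ (i + j) ≡ 2 ^ j + 2 ^ k [MOD m]) : i = k ∨ 2 ^ i ≡ 1 [MOD m] := by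
  have hdn : d ≤ n := Nat.le_of_dvd (by omega) hd
  have hd0 : 0 < d := Nat.pos_of_dvd_of_pos hd (by omega)
  by_cases hn : n < 25
  · have h1 := chk_all
    simp only [List.all_eq_true, List.mem_range] at h1
    have h2 := h1 n hn d (by omega)
    have h3 : 2 ^ n - 1 = d * m := by omega
    have h4 : (2 ^ n - 1) / d = m := by rw [h3, Nat.mul_div_cancel_left _ hd0]
    rw [Nat.mod_eq_zero_of_dvd hd, h3, Nat.mul_mod_right] at h2
    simp only [bne_self_eq_false, Bool.false_or, chk, List.all_eq_true, List.mem_range, h4] at h2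
    have h5 := h2 i hi j hj k hk
    rw [h] at h5
    simpa [Nat.ModEq] using h5
  have h2n : 2 ^ n ≡ 1 [MOD m] := by
    rw [← hm]; simp [Nat.ModEq]
  set L := n / 5 with hL
  have hL5 := five_le_pow (L := L) (by omega)
  have hmL : 2 ^ (n - L) < m := by
    by_contra hh
    have a1 : d * m ≤ n * 2 ^ (n - L) := Nat.mul_le_mul hdn (by omega)
    have a2 : (n + 1) * 2 ^ (n - L) ≤ 2 ^ L * 2 ^ (n - L) := Nat.mul_le_mul_right _ (by omega)
    rw [← pow_add, show L + (n - L) = n by omega, add_mul] at a2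
    have a3 : 1 < 2 ^ (n - L) := Nat.one_lt_two_pow (by omega)
    omega
  have hs : (i + j) % n < n := Nat.mod_lt _ (by omega)
  set s := (i + j) % n with hsd
  obtain ⟨r, hr, hr'⟩ : ∃ r, r < n ∧ ∀ p, p = 0 ∨ p = s ∨ p = j ∨ p = k → (p + r) % n < n - L := by
    have key : ∀ t, 1 ≤ t → t ≤ 4 → (∀ p, p = s ∨ p = j ∨ p = k → p < t * L ∨ (t + 1) * L ≤ p) →
        ∃ r, r < n ∧ ∀ p, p = 0 ∨ p = s ∨ p = j ∨ p = k → (p + r) % n < n - L := by
      intro t ht1 ht hp
      have b1 : (t + 1) * L ≤ 5 * L := Nat.mul_le_mul_right _ (by omega)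
      have b2 : (t + 1) * L = t * L + L := by ring
      have b3 : L ≤ t * L := Nat.le_mul_of_pos_left _ ht1
      refine ⟨n - (t + 1) * L, by omega, fun p h0 => ?_⟩
      have c1 : p < n := by omega
      have c2 : p < t * L ∨ (t + 1) * L ≤ p := by
        rcases h0 with h0 | h0
        · left; omega
        · exact hp p h0
      rcases c2 with c2 | c2
      · rw [Nat.mod_eq_of_lt (by omega)]; omega
      · rw [show p + (n - (t + 1) * L) = (p - (t + 1) * L) + n by omega, Nat.add_mod_right,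
          Nat.mod_eq_of_lt (by omega)]
        omega
    by_cases c1 : ∀ p, p = s ∨ p = j ∨ p = k → p < 1 * L ∨ (1 + 1) * L ≤ p
    · exact key 1 le_rfl (by norm_num) c1
    by_cases c2 : ∀ p, p = s ∨ p = j ∨ p = k → p < 2 * L ∨ (2 + 1) * L ≤ p
    · exact key 2 (by norm_num) (by norm_num) c2
    by_cases c3 : ∀ p, p = s ∨ p = j ∨ p = k → p < 3 * L ∨ (3 + 1) * L ≤ p
    · exact key 3 (by norm_num) (by norm_num) c3
    refine key 4 (by norm_num) le_rfl fun p hp => ?_
    push Not at c1 c2 c3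
    obtain ⟨p1, d1, e1⟩ := c1
    obtain ⟨p2, d2, e2⟩ := c2
    obtain ⟨p3, d3, e3⟩ := c3
    omega
  have e1 : 2 ^ ((0 + r) % n) + 2 ^ ((s + r) % n) ≡ 2 ^ ((j + r) % n) + 2 ^ ((k + r) % n) [MOD m] := by
    have a1 := h.mul_right (2 ^ r)
    rw [add_mul, add_mul, one_mul, ← pow_add, ← pow_add, ← pow_add] at a1
    have a2 := pow_modEq_mod h2n (i + j + r)
    rw [show (i + j + r) % n = (s + r) % n by rw [hsd, Nat.mod_add_mod]] at a2
    have a3 := pow_modEq_mod h2n r
    rw [zero_add]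
    exact ((a3.add a2).symm.trans a1).trans ((pow_modEq_mod h2n _).add (pow_modEq_mod h2n _))
  have bd : ∀ p q, p < n - L → q < n - L → 2 ^ p + 2 ^ q < m := by
    intro p q hp hq
    have a1 : 2 ^ p ≤ 2 ^ (n - L - 1) := Nat.pow_le_pow_right (by norm_num) (by omega)
    have a2 : 2 ^ q ≤ 2 ^ (n - L - 1) := Nat.pow_le_pow_right (by norm_num) (by omega)
    have a3 : 2 ^ (n - L) = 2 ^ (n - L - 1) * 2 := by rw [← pow_succ]; congr 1; omega
    omega
  have e2 := Nat.ModEq.eq_of_lt_of_lt e1 (bd _ _ (hr' 0 (by simp)) (hr' s (by simp)))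
    (bd _ _ (hr' j (by simp)) (hr' k (by simp)))
  have inj : ∀ p q, p < n → q < n → (p + r) % n = (q + r) % n → p = q := fun p q hp hq e =>
    Nat.ModEq.eq_of_lt_of_lt (Nat.ModEq.add_right_cancel' r e) hp hq
  rcases two_pow_pair e2 with ⟨a1, a2⟩ | ⟨a1, a2⟩
  · have b1 := inj _ _ (by omega) hj a1
    have b2 := inj _ _ hs hk a2
    left
    rw [hsd, ← b1, add_zero, Nat.mod_eq_of_lt hi] at b2
    exact b2
  · have b2 := inj _ _ hs hj a2
    have b3 : i + j ≡ 0 + j [MOD n] := by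
      rw [zero_add]; unfold Nat.ModEq; rw [← hsd, b2, Nat.mod_eq_of_lt hj]
    have b4 := Nat.ModEq.eq_of_lt_of_lt (Nat.ModEq.add_right_cancel' j b3) hi (by omega)
    right; rw [b4, pow_zero]

theorem prime_dvd_of {n d m r : ℕ} (hn : 0 < n) (hd : d ∣ n) (hm : d * m + 1 = 2 ^ n) (hr : r.Prime)
    (h : r ∣ d * m) : r ∣ m := by
  by_contra hrm
  have hd0 : d ≠ 0 := by rintro rfl; simp at hd; omega
  obtain ⟨v, d', hd', rfl⟩ := Nat.exists_eq_pow_mul_and_not_dvd hd0 r hr.ne_one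
  obtain ⟨c, rfl⟩ := hd
  have := Fact.mk hr
  have h1 : ((2 : ZMod r) ^ (d' * c)) ^ r ^ v = 1 := by
    rw [← pow_mul, show d' * c * r ^ v = r ^ v * d' * c by ring]
    have := congrArg (Nat.cast : ℕ → ZMod r) hm
    rw [Nat.cast_add, (ZMod.natCast_eq_zero_iff _ _).2 h] at this
    simpa using this.symm
  rw [ZMod.pow_card_pow] at h1
  have h2 : ((r : ℕ) : ℤ) ∣ 2 ^ (d' * c) - 1 := by
    rw [← ZMod.intCast_zmod_eq_zero_iff_dvd]
    push_cast
    rw [h1, sub_self]
  have h3 := dvd_sub_pow_of_dvd_sub h2 v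
  rw [one_pow, ← pow_mul, show d' * c * r ^ v = r ^ v * d' * c by ring] at h3
  have h4 : ((2 : ℤ) ^ (r ^ v * d' * c) - 1) = ((r ^ v * d' * m : ℕ) : ℤ) := by
    have := congrArg (Nat.cast : ℕ → ℤ) hm
    push_cast at this ⊢
    linarith
  rw [h4] at h3
  have h5 : r ^ (v + 1) ∣ r ^ v * d' * m := by exact_mod_cast h3
  rw [pow_succ, mul_assoc, Nat.mul_dvd_mul_iff_left (pow_pos hr.pos v)] at h5
  rcases (hr.dvd_mul).1 h5 with e | e
  · exact hd' e
  · exact hrm e

end Cfsg.Agent.Sz2
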