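import Cfsg.Agent.Sz2.Field

/-! Coordinates `Crd D U V f` on sections of a group with a group `Y` of automorphisms acting semilinearly, the key
lemma `lemE` and its consequences `Crd.biadd_eq_zero`, `Crd.biadd_fix`. -/

set_option autoImplicit false

namespace Cfsg.Agent.Sz2

open Subgroup Cfsg.Agent.AutCl Cfsg.Agent.Rank1

variable {P : Type*} [Group P] {Y : Subgroup (MulAut P)} {F : Type*} [Field F]

/-- `Y`-invariant subgroups -/
def InvY (Y : Subgroup (MulAut P)) (A : Subgroup P) : Prop := ∀ y : Y, Inv (y : MulAut P) A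

theorem InvY.sqS {A : Subgroup P} (h : InvY Y A) : InvY Y (sqS A) := fun y => (h y).sqS

theorem invY_top : InvY Y ⊤ := fun _ => inv_top

theorem invY_bot : InvY Y ⊥ := fun _ => inv_bot

/-- no invariant subgroup strictly between -/
def MinY (Y : Subgroup (MulAut P)) (V U : Subgroup P) : Prop :=
  ∀ B, InvY Y B → V < B → B ≤ U → B = U

/-- the non-trivial linear elements act without fixed points -/
def Fp (D : SL Y F) : Prop := ∀ y : Y, D.s y = 1 → D.a y ≠ 1 → ∀ x, (y : MulAut P) x = x → x = 1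

theorem MinY.ker {U V : Subgroup P} (h : MinY Y V U) (hU : InvY Y U) (hVU : V ≤ U) {f : P → F}
    (hf : ∀ u ∈ U, ∀ v ∈ U, f (u * v) = f u + f v) (h0 : ∀ v ∈ V, f v = 0)
    (hy : ∀ y : Y, ∀ u ∈ U, f u = 0 → f ((y : MulAut P) u) = 0) (hne : ∃ u ∈ U, f u ≠ 0) :
    ∀ u ∈ U, f u = 0 → u ∈ V := by
  intro u hu e
  by_contra huV
  obtain ⟨u₀, hu₀, h1⟩ := hne
  have := h (kerS U f hf) (fun y x hx => ⟨hU y x hx.1, hy y x hx.1 hx.2⟩)
    (lt_of_le_of_ne (fun v hv => ⟨hVU hv, h0 v hv⟩) fun e2 => huV (e2 ▸ ⟨hu, e⟩)) fun _ hx => hx.1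
  exact h1 (this.ge hu₀).2

/-- `f` identifies the section `U / V` with the field `F` equivariantly -/
structure Crd (D : SL Y F) (U V : Subgroup P) (f : P → F) : Prop where
  inv : InvY Y U
  le : V ≤ U
  map_mul : ∀ u ∈ U, ∀ v ∈ U, f (u * v) = f u + f v
  eq_zero : ∀ u ∈ U, f u = 0 ↔ u ∈ V
  map_y : ∀ y : Y, ∀ u ∈ U, f ((y : MulAut P) u) = D.a y * D.s y (f u)
  surj : ∀ x, ∃ u ∈ U, f u = x

variable {D : SL Y F}

theorem surj_of {U : Subgroup P} {f : P → F} (hU : InvY Y U) (h1 : f 1 = 0)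
    (h : ∀ y : Y, ∀ u ∈ U, f ((y : MulAut P) u) = D.a y * D.s y (f u)) {u : P} (hu : u ∈ U)
    (h0 : f u ≠ 0) (x : F) : ∃ u ∈ U, f u = x := by
  by_cases hx : x = 0
  · exact ⟨1, one_mem _, by rw [h1, hx]⟩
  obtain ⟨y, hy⟩ := D.exists_act h0 hx
  exact ⟨_, hU y u hu, by rw [h y u hu, hy]⟩

namespace Crd

variable {U V : Subgroup P} {f : P → F} (h : Crd D U V f)
include h

theorem map_one : f 1 = 0 := map_one_of h.map_mul

theorem zero {v : P} (hv : v ∈ V) : f v = 0 := (h.eq_zero v (h.le hv)).2 hv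

theorem exists_not_mem : ∃ u ∈ U, u ∉ V := by
  obtain ⟨u, hu, h1⟩ := h.surj 1
  exact ⟨u, hu, fun hv => one_ne_zero (h1.symm.trans (h.zero hv))⟩

variable [CharP F 2]

theorem map_inv {u : P} (hu : u ∈ U) : f u⁻¹ = f u := by
  rw [map_inv_of h.map_mul hu, CharTwo.neg_eq]

theorem eq_iff {u v : P} (hu : u ∈ U) (hv : v ∈ U) : f u = f v ↔ u⁻¹ * v ∈ V := by
  rw [← h.eq_zero _ (mul_mem (inv_mem hu) hv), h.map_mul _ (inv_mem hu) _ hv, h.map_inv hu,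
    CharTwo.add_eq_zero]

theorem sq_mem {u : P} (hu : u ∈ U) : u * u ∈ V := by
  rw [← h.eq_zero _ (mul_mem hu hu), h.map_mul _ hu _ hu, CharTwo.add_self_eq_zero]

theorem min : MinY Y V U := by
  intro B hB h1 h2
  obtain ⟨b, hb, hbV⟩ := SetLike.exists_of_lt h1
  refine le_antisymm h2 fun a ha => ?_
  by_cases e : f a = 0
  · exact h1.le ((h.eq_zero a ha).1 e)
  obtain ⟨y, hy⟩ := D.exists_act (fun e => hbV ((h.eq_zero b (h2 hb)).1 e)) e
  have h3 := hB y b hb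
  have h4 := (h.eq_iff (h2 h3) ha).1 (by rw [h.map_y y b (h2 hb), hy])
  exact (mul_mem_cancel_left (inv_mem h3)).1 (h1.le h4)

end Crd

variable [Finite P] [Fintype F] [CharP F 2]

instance instFiniteAutSub : Finite Y :=
  Finite.of_injective (fun f : Y => ((f : MulAut P) : P → P))
    (DFunLike.coe_injective.comp Subtype.val_injective)

theorem lemE (hq : 2 < Fintype.card F) (hF : Fp D) {U V : Subgroup P} (hU : InvY Y U) (hVU : V ≤ U)
    (hmin : MinY Y V U) (B : P → F → F)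
    (hl : ∀ u ∈ U, ∀ u' ∈ U, ∀ w, B (u * u') w = B u w + B u' w)
    (hr : ∀ u ∈ U, ∀ w w', B u (w + w') = B u w + B u w') (h0 : ∀ u ∈ V, ∀ w, B u w = 0)
    (hy : ∀ y : Y, ∀ u ∈ U, ∀ w, B ((y : MulAut P) u) (D.a y * D.s y w) = D.a y * D.s y (B u w))
    (hne : ∃ u ∈ U, ∃ w, B u w ≠ 0) :
    ∃ (σ : F ≃+* F) (c : P → F), (∀ u ∈ U, ∀ w, B u w = c u * σ w) ∧ (∀ u ∈ U, c u = 0 → u ∈ V) ∧
      ∀ y : Y, D.s y = 1 → D.a y ≠ 1 → σ (D.a y) ≠ D.a y := by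
  classical
  have hc : ∀ u, ∃ c : (F ≃+* F) → F, u ∈ U → ∀ w, B u w = ∑ σ, c σ * σ w := fun u => by
    by_cases hu : u ∈ U
    · obtain ⟨c, hc⟩ := exists_sum_aut (AddMonoidHom.mk' (B u) (hr u hu))
      exact ⟨c, fun _ => hc⟩
    · exact ⟨0, fun h => absurd h hu⟩
  choose c hc using hc
  have c1 : ∀ τ, ∀ u ∈ U, ∀ u' ∈ U, c (u * u') τ = c u τ + c u' τ := fun τ u hu u' hu' =>
    aut_coeff_eq (c := c (u * u')) (d := fun τ => c u τ + c u' τ) (fun w => by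
      simp only [add_mul, Finset.sum_add_distrib, ← hc _ hu, ← hc _ hu', ← hc _ (mul_mem hu hu')]
      exact hl u hu u' hu' w) τ
  have c2 : ∀ τ, ∀ u ∈ V, c u τ = 0 := fun τ u hu =>
    aut_coeff_eq_zero (fun w => by rw [← hc _ (hVU hu), h0 u hu]) τ
  have c3 : ∀ τ (y : Y), ∀ u ∈ U, c ((y : MulAut P) u) τ * τ (D.a y) = D.a y * D.s y (c u τ) := by
    intro τ y u hu
    refine aut_coeff_eq (c := fun τ => c ((y : MulAut P) u) τ * τ (D.a y))
      (d := fun τ => D.a y * D.s y (c u τ)) (fun w => ?_) τ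
    obtain ⟨w, rfl⟩ := (D.s y).surjective w
    have := hy y u hu w
    rw [hc _ (hU y u hu), hc _ hu, map_sum, Finset.mul_sum] at this
    simpa only [map_mul, mul_assoc, SL.aut_comm (D.s y)] using this
  have c4 : ∀ τ, (∃ u ∈ U, c u τ ≠ 0) → ∀ u ∈ U, c u τ = 0 → u ∈ V := fun τ hτ =>
    hmin.ker hU hVU (f := fun u => c u τ) (c1 τ) (c2 τ) (fun y u hu e => by
      have := c3 τ y u hu
      rw [e, map_zero, mul_zero] at this
      exact (mul_eq_zero.1 this).resolve_right ((map_ne_zero τ).2 (D.a_ne y))) hτ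
  have c5 : ∀ τ, (∃ u ∈ U, c u τ ≠ 0) → ∀ y : Y, D.s y = 1 → D.a y ≠ 1 → τ (D.a y) ≠ D.a y := by
    rintro τ ⟨u, hu, e⟩ y h1 h2 h3
    obtain ⟨w, hw, rfl⟩ := exists_eq_inv_mul (hF y h1 h2) (hU y) hu
    have h4 := c3 τ y w hw
    rw [h3, h1, mul_comm, mul_right_inj' (D.a_ne y)] at h4
    apply e
    rw [c1 τ _ (inv_mem hw) _ (hU y w hw), h4, map_inv_of (f := fun u => c u τ) (c1 τ) hw]
    exact neg_add_cancel _
  obtain ⟨σ, hσ⟩ : ∃ σ, ∃ u ∈ U, c u σ ≠ 0 := by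
    by_contra hh
    push Not at hh
    obtain ⟨u, hu, w, h⟩ := hne
    exact h (by simp [hc _ hu, hh _ u hu])
  refine ⟨σ, fun u => c u σ, fun u hu w => ?_, c4 σ hσ, c5 σ hσ⟩
  rw [hc _ hu, Finset.sum_eq_single σ]
  · intro τ _ hτ
    by_contra hh
    have hτ' : c u τ ≠ 0 := fun e => hh (by rw [e, zero_mul])
    obtain ⟨y, y1, y2, y3⟩ := D.exists_sep hq
    let S : AddSubgroup (F × F) :=
      { carrier := {p | ∃ u ∈ U, p = (c u σ, c u τ)}
        zero_mem' := ⟨1, one_mem _, by rw [c2 _ _ (one_mem _), c2 _ _ (one_mem _)]; rfl⟩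
        add_mem' := by
          rintro _ _ ⟨u, hu, rfl⟩ ⟨v, hv, rfl⟩
          exact ⟨u * v, mul_mem hu hv, by rw [c1 _ _ hu _ hv, c1 _ _ hu _ hv]; rfl⟩
        neg_mem' := by
          rintro _ ⟨u, hu, rfl⟩
          exact ⟨u, hu, by ext <;> simp [CharTwo.neg_eq]⟩ }
    have hs : ∀ ρ : F ≃+* F, ρ (D.a y) ≠ 0 := fun ρ => (map_ne_zero ρ).2 (D.a_ne y)
    obtain ⟨θ, hθ⟩ := SL.exists_conj (α := D.a y / σ (D.a y)) (β := D.a y / τ (D.a y)) S (by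
        rintro _ ⟨v, hv, rfl⟩
        refine ⟨_, hU y v hv, ?_⟩
        have a1 := c3 σ y v hv
        have a2 := c3 τ y v hv
        rw [y1] at a1 a2
        ext
        · show D.a y / σ (D.a y) * c v σ = _
          rw [div_mul_eq_mul_div, div_eq_iff (hs σ)]; exact a1.symm
        · show D.a y / τ (D.a y) * c v τ = _
          rw [div_mul_eq_mul_div, div_eq_iff (hs τ)]; exact a2.symm)
      (by
        rintro b ⟨v, hv, e⟩
        rw [Prod.ext_iff] at e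
        exact e.2.trans (c2 τ v (c4 σ hσ v hv e.1.symm)))
      (p := (c u σ, c u τ)) ⟨u, hu, rfl⟩ hτ'
    rw [map_div₀, div_eq_div_iff ((map_ne_zero θ).2 (hs σ)) (hs τ)] at hθ
    rcases y3 θ σ τ hθ.symm with e | e
    · exact hτ e.symm
    · exact c5 σ hσ y y1 y2 e
  · simp

theorem Crd.biadd (hq : 2 < Fintype.card F) (hF : Fp D) {U V : Subgroup P} (hU : InvY Y U)
    (hVU : V ≤ U) (hmin : MinY Y V U) {U₂ V₂ : Subgroup P} {f : P → F} (h₂ : Crd D U₂ V₂ f)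
    (γ : P → P → F)
    (hl : ∀ u ∈ U, ∀ u' ∈ U, ∀ v ∈ U₂, γ (u * u') v = γ u v + γ u' v)
    (hr : ∀ u ∈ U, ∀ v ∈ U₂, ∀ v' ∈ U₂, γ u (v * v') = γ u v + γ u v')
    (hl0 : ∀ u ∈ V, ∀ v ∈ U₂, γ u v = 0) (hr0 : ∀ u ∈ U, ∀ v ∈ V₂, γ u v = 0)
    (hy : ∀ y : Y, ∀ u ∈ U, ∀ v ∈ U₂,
      γ ((y : MulAut P) u) ((y : MulAut P) v) = D.a y * D.s y (γ u v))
    (hne : ∃ u ∈ U, ∃ v ∈ U₂, γ u v ≠ 0) :
    (∀ u ∈ U, ∀ v ∈ U₂, γ u v = 0 → u ∈ V ∨ v ∈ V₂) ∧
      ∀ u ∈ U, ∀ v ∈ U₂, ∀ v' ∈ U₂, γ u v = f v → γ u v' = f v' → f v ≠ 0 → f v' ≠ 0 → f v = f v' := by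
  choose s hs hs' using h₂.surj
  have key : ∀ u ∈ U, ∀ v ∈ U₂, γ u (s (f v)) = γ u v := by
    intro u hu v hv
    have a2 := (h₂.eq_iff hv (hs (f v))).1 (hs' _).symm
    rw [show s (f v) = v * (v⁻¹ * s (f v)) by group, hr _ hu _ hv _ (h₂.le a2), hr0 _ hu _ a2, add_zero]
  obtain ⟨σ, c, k1, k2, k3⟩ := lemE hq hF hU hVU hmin (fun u w => γ u (s w))
    (fun u hu u' hu' w => hl u hu u' hu' _ (hs w))
    (fun u hu w w' => by
      rw [← hr _ hu _ (hs w) _ (hs w'), ← key _ hu _ (mul_mem (hs w) (hs w')),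
        h₂.map_mul _ (hs w) _ (hs w'), hs', hs'])
    (fun u hu w => hl0 u hu _ (hs w))
    (fun y u hu w => by
      rw [← hy y u hu _ (hs w), ← key _ (hU y u hu) _ (h₂.inv y _ (hs w)), h₂.map_y y _ (hs w), hs'])
    (by
      obtain ⟨u, hu, v, hv, e⟩ := hne
      exact ⟨u, hu, f v, by rwa [key u hu v hv]⟩)
  have k4 : ∀ u ∈ U, ∀ v ∈ U₂, γ u v = c u * σ (f v) := fun u hu v hv => by
    rw [← k1 u hu, key u hu v hv]
  refine ⟨fun u hu v hv e => ?_, fun u hu v hv v' hv' e e' h0 h0' => ?_⟩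
  · rw [k4 u hu v hv, mul_eq_zero, map_eq_zero] at e
    exact e.imp (k2 u hu) (h₂.eq_zero v hv).1
  · by_contra hh
    rw [k4 u hu _ hv] at e
    rw [k4 u hu _ hv'] at e'
    have e1 : σ (f v / f v') = f v / f v' := by
      have h5 : σ (f v') ≠ 0 := (map_ne_zero σ).2 h0'
      rw [map_div₀, div_eq_div_iff h5 h0']
      linear_combination (σ (f v')) * e - (σ (f v)) * e'
    obtain ⟨y, y1, y2, y3⟩ := D.exists_fixed e1 (div_ne_zero h0 h0')
      (by rwa [Ne, div_eq_one_iff_eq h0'])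
    exact k3 y y1 y2 y3

end Cfsg.Agent.Sz2
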