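import Cfsg.Agent.Sz2.Arith
import Cfsg.Agent.Rank1.Coord
import Mathlib.FieldTheory.Normal.Basic
import Mathlib.FieldTheory.Finite.GaloisField

/-! Groups acting semilinearly and transitively on the non-zero elements of a finite field of characteristic two
(`SL Y F`): the linear part has index dividing the degree (`SL.exists_gen`), and the key lemma `SL.lemE` on
equivariant biadditive maps. -/

set_option autoImplicit false

namespace Cfsg.Agent.Sz2

open Cfsg.Agent.AutCl Cfsg.Agent.Rank1 Polynomial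

/-- a transitive semilinear action `w ↦ a y * s y w` on the non-zero elements of `F` -/
structure SL (Y F : Type*) [Group Y] [Field F] where
  a : Y → F
  s : Y →* (F ≃+* F)
  a_mul : ∀ y y', a (y * y') = a y * s y (a y')
  a_ne : ∀ y, a y ≠ 0
  surj : ∀ x, x ≠ 0 → ∃ y, a y = x

variable {Y F : Type*} [Group Y] [Field F]

namespace SL

variable (D : SL Y F)

theorem a_one : D.a 1 = 1 := by
  have := D.a_mul 1 1
  rw [mul_one, map_one] at this
  exact (mul_eq_left₀ (D.a_ne 1)).1 this.symm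

theorem s_mul (y y' : Y) (w : F) : D.s (y * y') w = D.s y (D.s y' w) := by rw [map_mul]; rfl

theorem exists_act {x x' : F} (hx : x ≠ 0) (hx' : x' ≠ 0) : ∃ y, D.a y * D.s y x = x' := by
  obtain ⟨y, rfl⟩ := D.surj x hx
  obtain ⟨y', rfl⟩ := D.surj x' hx'
  exact ⟨y' * y⁻¹, by rw [← D.a_mul, inv_mul_cancel_right]⟩

theorem a_pow {y : Y} (hy : D.s y = 1) (i : ℕ) : D.a (y ^ i) = D.a y ^ i := by
  induction i with
  | zero => rw [pow_zero, pow_zero, D.a_one]
  | succ i ih => rw [pow_succ', D.a_mul, ih, hy, pow_succ']; rfl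

/-- the action on `F` -/
@[reducible] def act : MulAction Y F where
  smul y w := D.a y * D.s y w
  one_smul w := by
    show D.a 1 * D.s 1 w = w
    rw [D.a_one, map_one, one_mul]; rfl
  mul_smul y y' w := by
    show D.a (y * y') * D.s (y * y') w = D.a y * D.s y (D.a y' * D.s y' w)
    rw [D.a_mul, D.s_mul, map_mul, mul_assoc]

variable [Fintype F] [CharP F 2]

theorem exists_gen [Finite Y] : ∃ (n d m : ℕ) (y : Y), Fintype.card F = 2 ^ n ∧ d ∣ n ∧
    d * m + 1 = 2 ^ n ∧ D.s y = 1 ∧ IsPrimitiveRoot (D.a y) m := by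
  classical
  have : Fact (Nat.Prime 2) := ⟨Nat.prime_two⟩
  obtain ⟨n, -, hn⟩ := FiniteField.card F 2
  letI := D.act
  let St := MulAction.stabilizer Y (1 : F)
  have hSt : ∀ y, y ∈ St ↔ D.a y = 1 := fun y => by
    show D.a y * D.s y 1 = 1 ↔ _
    rw [map_one, mul_one]
  have h1 : St.index = Fintype.card F - 1 := by
    rw [MulAction.index_stabilizer, show MulAction.orbit Y (1 : F) = {0}ᶜ from ?_,
      Set.ncard_compl, Set.ncard_singleton, Nat.card_eq_fintype_card]
    ext x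
    constructor
    · rintro ⟨y, rfl⟩
      exact mul_ne_zero (D.a_ne y) ((_root_.map_ne_zero _).2 one_ne_zero)
    · exact D.exists_act one_ne_zero
  let α : D.s.ker →* Fˣ := MonoidHom.mk' (fun k => Units.mk0 (D.a k) (D.a_ne k)) fun k k' =>
    Units.ext (by
      show D.a (k * k') = D.a k * D.a k'
      rw [D.a_mul, show D.s k = 1 from k.2]; rfl)
  have h2 : St.relIndex D.s.ker = Nat.card α.range := by
    rw [← Subgroup.index_ker, Subgroup.relIndex]
    congr 1
    ext k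
    rw [Subgroup.mem_subgroupOf, hSt, MonoidHom.mem_ker, Units.ext_iff]
    rfl
  have h3 : D.s.ker.index ∣ n := by
    rw [Subgroup.index_ker, ← card_ringAut hn]
    exact Subgroup.card_subgroup_dvd_card _
  have h4 := Subgroup.relIndex_mul_index (inf_le_right : St ⊓ D.s.ker ≤ _)
  rw [← Subgroup.relIndex_mul_index (inf_le_left : St ⊓ D.s.ker ≤ _), Subgroup.inf_relIndex_right, h2,
    h1] at h4
  obtain ⟨d, hd⟩ := Subgroup.card_subgroup_dvd_card α.range
  rw [Nat.card_eq_fintype_card (α := Fˣ), Fintype.card_units] at hd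
  obtain ⟨⟨g, k, rfl⟩, hg⟩ := IsCyclic.exists_generator (α := α.range)
  have h5 := orderOf_eq_card_of_forall_mem_zpowers hg
  refine ⟨n, d, Nat.card α.range, k, hn, Dvd.dvd.trans ⟨(St ⊓ D.s.ker).relIndex St, ?_⟩ h3, ?_, k.2, ?_⟩
  · apply Nat.eq_of_mul_eq_mul_left (Nat.card_pos (α := α.range))
    rw [h4, hd]; ring
  · rw [mul_comm, ← hd, ← hn]
    have := Fintype.card_pos (α := F)
    omega
  · rw [← h5, ← Subgroup.orderOf_coe, ← orderOf_units]
    exact IsPrimitiveRoot.orderOf _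

omit D in
theorem aut_comm (σ τ : F ≃+* F) (x : F) : σ (τ x) = τ (σ x) := by
  have : Fact (Nat.Prime 2) := ⟨Nat.prime_two⟩
  obtain ⟨k, hk⟩ := exists_ringAut_eq_pow 2 σ
  rw [hk, hk, map_pow]

omit D in
theorem exists_pow_lt {n : ℕ} (hn : Fintype.card F = 2 ^ n) (σ : F ≃+* F) :
    ∃ k < n, ∀ x, σ x = x ^ 2 ^ k := by
  have : Fact (Nat.Prime 2) := ⟨Nat.prime_two⟩
  have h0 : 0 < n := by
    have := Fintype.one_lt_card (α := F)
    rcases n with _ | n
    · omega
    · omega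
  obtain ⟨k, hk⟩ := exists_ringAut_eq_pow 2 σ
  refine ⟨k % n, Nat.mod_lt _ h0, fun x => ?_⟩
  rw [hk]
  conv_lhs => rw [← Nat.div_add_mod k n, pow_add, pow_mul, pow_mul, ← hn, FiniteField.pow_card_pow]

omit D in
theorem exists_conj {α β : F} (S : AddSubgroup (F × F)) (hS : ∀ p ∈ S, (α * p.1, β * p.2) ∈ S)
    (h0 : ∀ b, ((0 : F), b) ∈ S → b = 0) {p : F × F} (hp : p ∈ S) (hp2 : p.2 ≠ 0) :
    ∃ θ : F ≃+* F, θ α = β := by
  have : Fact (Nat.Prime 2) := ⟨Nat.prime_two⟩
  letI := ZMod.algebra F 2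
  have key : ∀ f : (ZMod 2)[X], ∀ p ∈ S, (aeval α f * p.1, aeval β f * p.2) ∈ S := by
    intro f
    induction f using Polynomial.induction_on with
    | C c =>
      intro p hp
      rcases zmod_two_cases c with rfl | rfl
      · simp only [map_zero, zero_mul]; exact S.zero_mem
      · simpa using hp
    | add f g hf hg =>
      intro p hp
      simpa [add_mul] using S.add_mem (hf p hp) (hg p hp)
    | monomial k c ih =>
      intro p hp
      have := ih _ (hS p hp)
      simpa [pow_succ, mul_assoc] using this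
  have h1 := key (minpoly (ZMod 2) α) p hp
  rw [minpoly.aeval, zero_mul] at h1
  have h2 := (mul_eq_zero.1 (h0 _ h1)).resolve_right hp2
  obtain ⟨θ, hθ⟩ := minpoly.exists_algEquiv_of_root' (Algebra.IsAlgebraic.isAlgebraic α) h2
  exact ⟨θ.toRingEquiv, hθ⟩

theorem exists_fixed [Finite Y] {σ : F ≃+* F} {t : F} (h : σ t = t) (h0 : t ≠ 0) (h1 : t ≠ 1) :
    ∃ y, D.s y = 1 ∧ D.a y ≠ 1 ∧ σ (D.a y) = D.a y := by
  obtain ⟨n, d, m, y, hn, hd, hm, hy, hprim⟩ := D.exists_gen
  have hn0 : 0 < n := by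
    have := Fintype.one_lt_card (α := F)
    rcases n with _ | n
    · omega
    · omega
  have ht : t ^ (d * m) = 1 := by
    rw [show d * m = Fintype.card F - 1 by omega]
    exact FiniteField.pow_card_sub_one_eq_one t h0
  have hdm : d * m ≠ 0 := by
    have := Fintype.one_lt_card (α := F)
    omega
  have ho : orderOf t ≠ 1 := by rwa [Ne, orderOf_eq_one_iff]
  obtain ⟨r, hr, c, hc⟩ := Nat.exists_prime_and_dvd ho
  have hrm : r ∣ m := prime_dvd_of hn0 hd hm hr (Dvd.dvd.trans ⟨c, hc⟩ (orderOf_dvd_of_pow_eq_one ht))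
  have ho0 : orderOf t ≠ 0 := fun e => hdm (by
    have := orderOf_dvd_of_pow_eq_one ht
    rwa [e, zero_dvd_iff] at this)
  have h2 : (t ^ c) ^ m = 1 := by
    obtain ⟨e, rfl⟩ := hrm
    rw [pow_mul, ← pow_mul t, mul_comm c, ← hc, pow_orderOf_eq_one, one_pow]
  have : NeZero m := ⟨fun e => hdm (by rw [e, mul_zero])⟩
  obtain ⟨i, -, hi⟩ := hprim.eq_pow_of_pow_eq_one h2
  refine ⟨y ^ i, by rw [map_pow, hy, one_pow], ?_, ?_⟩
  · rw [D.a_pow hy, hi]
    intro e
    have h3 := Nat.le_of_dvd (Nat.pos_of_ne_zero fun e => ho0 (by rw [hc, e, mul_zero]))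
      (orderOf_dvd_of_pow_eq_one e)
    have h4 : c ≠ 0 := fun e => ho0 (by rw [hc, e, mul_zero])
    have := hr.two_le
    nlinarith [Nat.pos_of_ne_zero h4]
  · rw [D.a_pow hy, hi, map_pow, h]

theorem exists_lin [Finite Y] (hq : 2 < Fintype.card F) : ∃ y, D.s y = 1 ∧ D.a y ≠ 1 := by
  obtain ⟨μ, hμ⟩ := exists_prim (F := F)
  obtain ⟨y, h1, h2, -⟩ := D.exists_fixed (σ := 1) (t := μ) rfl hμ.ne_zero' (hμ.ne_one' hq)
  exact ⟨y, h1, h2⟩

theorem exists_sep [Finite Y] (hq : 2 < Fintype.card F) : ∃ y, D.s y = 1 ∧ D.a y ≠ 1 ∧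
    ∀ θ σ τ : F ≃+* F, D.a y * θ (σ (D.a y)) = θ (D.a y) * τ (D.a y) → σ = τ ∨ σ (D.a y) = D.a y := by
  obtain ⟨n, d, m, y, hn, hd, hm, hy, hprim⟩ := D.exists_gen
  have hn0 : 0 < n := by
    rcases n with _ | n
    · omega
    · omega
  have hm1 : 1 < m := by
    have a1 : d ≤ n := Nat.le_of_dvd hn0 hd
    by_contra hh
    have a2 : d * m ≤ n * 1 := Nat.mul_le_mul a1 (by omega)
    have a3 : ∀ k, 2 ≤ k → k + 1 < 2 ^ k := by
      intro k hk
      induction k, hk using Nat.le_induction with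
      | base => norm_num
      | succ k _ ih => rw [pow_succ]; omega
    have a4 : 2 ≤ n := by
      by_contra h2
      have : n = 1 := by omega
      subst this; omega
    have := a3 n a4
    omega
  refine ⟨y, hy, hprim.ne_one hm1, fun θ σ τ h => ?_⟩
  obtain ⟨i, hi, ei⟩ := exists_pow_lt hn σ
  obtain ⟨j, hj, ej⟩ := exists_pow_lt hn θ
  obtain ⟨k, hk, ek⟩ := exists_pow_lt hn τ
  rw [ei, ej, ej, ek, ← pow_mul, ← pow_add, ← pow_add, ← pow_succ', add_comm] at h
  have h2 : ∀ u v : ℕ, D.a y ^ u = D.a y ^ v ↔ u ≡ v [MOD m] := fun u v => by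
    rw [hprim.eq_orderOf]
    have := pow_eq_pow_iff_modEq (x := Units.mk0 _ (D.a_ne y)) (n := u) (m := v)
    rw [← orderOf_units, Units.ext_iff] at this
    simpa using this
  rcases exps hd hm hi hj hk ((h2 _ _).1 h) with e | e
  · left; ext x; rw [ei, ek, e]
  · right; rw [ei, (h2 _ _).2 e, pow_one]

end SL

end Cfsg.Agent.Sz2
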