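import Cfsg.Agent.Sz2.Crd
import Cfsg.Agent.Rank1.Higman

/-! Higman's theorem on Suzuki 2-groups for a group `Y` of automorphisms acting semilinearly and transitively on the
involutions (`Sz D z`): `Sz.center_eq`, `Sz.sq_mem_Om`. Adapted from `Rank1/Higman`. -/

set_option autoImplicit false

namespace Cfsg.Agent.Sz2

open Subgroup Cfsg.Agent.Invol Cfsg.Agent.Rank1
open scoped commutatorElement

variable {P : Type*} [Group P] {Y : Subgroup (MulAut P)} {F : Type*} [Field F] [Fintype F]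

/-- a finite 2-group whose involutions are central, with a semilinear coordinate `z` on `Om P` -/
structure Sz (D : SL Y F) (z : P → F) : Prop where
  pg : IsPGroup 2 P
  hq : 2 < Fintype.card F
  central : ∀ x : P, x * x = 1 → x ∈ center P
  crd : Crd D (Om P) ⊥ z

/-- `C / A` is a chief factor for the invariant normal subgroups -/
structure Cov (Y : Subgroup (MulAut P)) (A C : Subgroup P) : Prop where
  inv : InvY Y C
  lt : A < C
  comm : ∀ c ∈ C, ∀ g, ⁅c, g⁆ ∈ A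
  sq : ∀ c ∈ C, c * c ∈ A
  min : MinY Y A C

theorem Cov.normal {A C : Subgroup P} (h : Cov Y A C) : C.Normal :=
  normal_of_comm_mem h.lt.le h.comm

theorem invY_Om : InvY Y (Om P) := fun _ => inv_Om

theorem InvY.cmod {M N : Subgroup P} [M.Normal] (hM : InvY Y M) (hN : InvY Y N) :
    InvY Y (cmod M N) := fun y => (hM y).cmod (hN y)

theorem InvY.commutator {A B : Subgroup P} (h : InvY Y A) (h' : InvY Y B) : InvY Y ⁅A, B⁆ :=
  fun y => (h y).commutator (h' y)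

variable [Finite P]

theorem exists_cov (hP : IsPGroup 2 P) {A D : Subgroup P} [A.Normal] [D.Normal] (hA : InvY Y A)
    (hD : InvY Y D) (hAD : A < D) : ∃ C, C ≤ D ∧ Cov Y A C := by
  have : Fact (Nat.Prime 2) := ⟨Nat.prime_two⟩
  obtain ⟨x, hxD, hxA, hx2, hxc⟩ := PGrp.exists_central_mod_pow hP (M := A) (N := D) hAD.not_ge
  let E : Subgroup P :=
    { carrier := {c | c ∈ cmod A D ∧ c * c ∈ A}
      one_mem' := ⟨one_mem _, by simp⟩
      mul_mem' := fun {a b} ha hb => ⟨mul_mem ha.1 hb.1, by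
        have : a * b * (a * b) = a * a * ⁅b, a⁻¹⁆⁻¹ * (b * b) := by
          rw [commutatorElement_def]; group
        rw [this]
        exact mul_mem (mul_mem ha.2 (inv_mem ((mem_cmod.1 hb.1).2 _))) hb.2⟩
      inv_mem' := fun {a} ha => ⟨inv_mem ha.1, by rw [← mul_inv_rev]; exact inv_mem ha.2⟩ }
  have hE : InvY Y E ∧ A < E := by
    refine ⟨fun φ y hy => ⟨hA.cmod hD φ y hy.1, by rw [← map_mul]; exact hA φ _ hy.2⟩,
      lt_of_le_of_ne (fun a ha => ⟨mem_cmod.2 ⟨hAD.le ha, comm_mem_left ha⟩, mul_mem ha ha⟩)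
        fun e => hxA (e.ge ⟨mem_cmod.2 ⟨hxD, hxc⟩, by rwa [← pow_two]⟩)⟩
  obtain ⟨C, hCE, hC, hmin⟩ := exists_minimal_le_of_wellFoundedLT
    (fun C : Subgroup P => InvY Y C ∧ A < C) E hE
  exact ⟨C, fun c hc => (mem_cmod.1 (hCE hc).1).1, hC.1, hC.2,
    fun c hc => (mem_cmod.1 (hCE hc).1).2, fun c hc => (hCE hc).2,
    fun B h1 h2 h3 => le_antisymm h3 (hmin ⟨h1, h2⟩ h3)⟩

namespace Sz

variable {D : SL Y F} {z : P → F} (h : Sz D z)
include h

omit [Finite P] in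
theorem mem_Om {x : P} : x ∈ Om P ↔ x * x = 1 := mem_Om_iff h.central

omit [Finite P] in
theorem commute_Om {z : P} (hz : z ∈ Om P) (g : P) : Commute g z :=
  mem_center_iff.1 (Om_le_center h.central hz) g

omit [Finite P] in
theorem normal_Om : (Om P).Normal := ⟨fun z hz g => by
  rwa [(h.commute_Om hz g).eq, mul_inv_cancel_right]⟩

omit [Finite P] in
theorem comm_Om : Comm (Om P) := fun a _ _ hb => h.commute_Om hb a

variable [CharP F 2]

theorem Om_le {B : Subgroup P} (hB : InvY Y B) (h1 : B ≠ ⊥) : Om P ≤ B := by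
  obtain ⟨s, hs, h2⟩ := exists_invol_mem_of_isPGroup (h.pg.to_subgroup B) h1
  have := h.crd.min (B ⊓ Om P) (fun y => (hB y).inf inv_Om) (bot_lt_iff_ne_bot.2 fun e =>
    ne_one_of h2 (e.le ⟨hs, mem_Om_of (mul_self_of h2)⟩)) inf_le_right
  exact this.ge.trans inf_le_left

omit [CharP F 2] in
theorem fp : Fp D := by
  intro y h1 h2 x hx
  by_contra hx1
  obtain ⟨s, hs, hs2⟩ := exists_invol_mem_of_isPGroup (h.pg.to_subgroup (zpowers x))
    (by rwa [Ne, zpowers_eq_bot])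
  obtain ⟨j, rfl⟩ := hs
  have h3 := mem_Om_of (mul_self_of hs2)
  have h4 := h.crd.map_y y _ h3
  simp only [map_zpow, hx, h1] at h4
  exact ne_one_of hs2 ((h.crd.eq_zero _ h3).1 (by
    by_contra h5
    exact h2 ((mul_eq_right₀ h5).1 h4.symm)))

omit [CharP F 2] in
theorem sqS_lt {A : Subgroup P} (hc : Comm A) (h1 : A ≠ ⊥) : sqS A < A := by
  refine lt_of_le_of_ne (sqS_le A) fun e => h1 (eq_bot_iff.2 (le_of_nakayama h.pg hc bot_le
    fun a ha => ?_))
  obtain ⟨c, hc1, rfl⟩ := hc.mem_sqS.1 (e.ge ha)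
  exact ⟨1, one_mem _, c, hc1, by simp⟩

/-- squaring transports coordinates -/
theorem coord_sq {A : Subgroup P} (hA : InvY Y A) (hc : Comm A) {k : P → F}
    (hk : Crd D (sqS A) (sqS (sqS A)) k) : Crd D A (sqS A) fun a => k (a * a) := by
  have hO : Om P ≤ sqS A := h.Om_le hA.sqS fun e => by
    obtain ⟨u, hu, h1⟩ := hk.exists_not_mem
    exact h1 (by rw [mem_bot.1 (e.le hu)]; exact one_mem _)
  refine ⟨hA, sqS_le A, fun u hu v hv => ?_, fun u hu => ⟨fun e => ?_, fun e => hk.zero (sq_mem_sqS e)⟩,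
    fun y u hu => ?_, fun x => ?_⟩
  · rw [hc.mul_sq hu hv, hk.map_mul _ (sq_mem_sqS hu) _ (sq_mem_sqS hv)]
  · obtain ⟨b, hb, e1⟩ := hc.sqS.mem_sqS.1 ((hk.eq_zero _ (sq_mem_sqS hu)).1 e)
    have h1 : u * b⁻¹ ∈ sqS A := hO (mem_Om_of (by
      rw [hc.mul_sq hu (inv_mem (sqS_le A hb)), ← e1]; group))
    exact (mul_mem_cancel_right (inv_mem hb)).1 h1
  · rw [← map_mul, hk.map_y y _ (sq_mem_sqS hu)]
  · obtain ⟨y, hy, rfl⟩ := hk.surj x
    obtain ⟨a, ha, rfl⟩ := hc.mem_sqS.1 hy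
    exact ⟨a, ha, rfl⟩

theorem coord_sqS (A : Subgroup P) : InvY Y A → Comm A → A ≠ ⊥ → ∃ g, Crd D A (sqS A) g := by
  induction A using WellFoundedLT.induction with
  | ind A ih =>
  intro hA hc h1
  by_cases h2 : sqS A = ⊥
  · have : A = Om P := le_antisymm (fun a ha => mem_Om_of (h2.le (sq_mem_sqS ha))) (h.Om_le hA h1)
    rw [h2, this]; exact ⟨z, h.crd⟩
  · obtain ⟨k, hk⟩ := ih _ (h.sqS_lt hc h1) hA.sqS hc.sqS h2
    exact ⟨_, h.coord_sq hA hc hk⟩

/-- invariant subgroups between `A²` and `A` -/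
theorem eq_of_sqS_lt {A B : Subgroup P} (hA : InvY Y A) (hc : Comm A) (hB : InvY Y B)
    (h1 : sqS A < B) (h2 : B ≤ A) : B = A := by
  obtain ⟨g, hg⟩ := h.coord_sqS A hA hc (by rintro rfl; exact not_lt_bot (h1.trans_le h2))
  exact hg.min B hB h1 h2

theorem le_sqS {A B : Subgroup P} (hA : InvY Y A) (hc : Comm A) (hB : InvY Y B) (hBA : B < A) :
    B ≤ sqS A := by
  by_contra hle
  let B' : Subgroup P :=
    { carrier := {x | ∃ b ∈ B, ∃ c ∈ A, x = b * (c * c)}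
      one_mem' := ⟨1, one_mem _, 1, one_mem _, by simp⟩
      mul_mem' := by
        rintro _ _ ⟨b, hb, c, hc1, rfl⟩ ⟨b', hb', c', hc', rfl⟩
        refine ⟨b * b', mul_mem hb hb', c * c', mul_mem hc1 hc', ?_⟩
        rw [hc.mul_sq hc1 hc', mul_assoc, ← mul_assoc (c * c) b',
          hc _ (mul_mem hc1 hc1) _ (hBA.le hb')]
        group
      inv_mem' := by
        rintro _ ⟨b, hb, c, hc1, rfl⟩
        refine ⟨b⁻¹, inv_mem hb, c⁻¹, inv_mem hc1, ?_⟩
        rw [← hc _ (mul_mem hc1 hc1) _ (hBA.le hb)]; group }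
  have h1 : B' = A := by
    refine h.eq_of_sqS_lt hA hc ?_ (lt_of_le_of_ne (sqS_le_iff.2 fun a ha =>
      ⟨1, one_mem _, a, ha, by simp⟩) fun e => hle fun b hb => e.ge ⟨b, hb, 1, one_mem _, by simp⟩) ?_
    · rintro y _ ⟨b, hb, c, hc1, rfl⟩
      exact ⟨_, hB y b hb, _, hA y c hc1, by simp⟩
    · rintro _ ⟨b, hb, c, hc1, rfl⟩
      exact mul_mem (hBA.le hb) (mul_mem hc1 hc1)
  exact hBA.not_ge (le_of_nakayama h.pg hc hBA.le fun a ha => h1.ge ha)

theorem comm_mem_sqS {A : Subgroup P} [A.Normal] (hA : InvY Y A) (hc : Comm A) (g : P) {a : P}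
    (ha : a ∈ A) : ⁅g, a⁆ ∈ sqS A := by
  have : Fact (Nat.Prime 2) := ⟨Nat.prime_two⟩
  have := h.pg.isNilpotent
  by_cases h1 : A = ⊥
  · subst h1; rw [mem_bot.1 ha]; simp
  obtain ⟨x, hxA, hx, hxc⟩ := PGrp.exists_central_mod (M := sqS A) (N := A) (h.sqS_lt hc h1).not_ge
  have h2 := h.eq_of_sqS_lt hA hc (hA.sqS.cmod hA) (lt_of_le_of_ne
    (fun y hy => mem_cmod.2 ⟨sqS_le A hy, comm_mem_left hy⟩) fun e => hx (e.ge (mem_cmod.2 ⟨hxA, hxc⟩)))
    inf_le_left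
  rw [← commutatorElement_inv]
  exact inv_mem ((mem_cmod.1 (h2.ge ha)).2 g)

omit [CharP F 2] in
/-- Higman's Lemma 2 -/
theorem lemma2 {A : Subgroup P} [hAn : A.Normal] (hc : Comm A) (hO : Om P ≤ A) {u : P}
    (hu : u * u ∈ sqS A) (hcomm : ∀ a ∈ A, ⁅u, a⁆ ∈ sqS (sqS A)) : u ∈ A := by
  let I : Subgroup P :=
    { carrier := {x | ∃ a ∈ A, x = ⁅u, a⁆ * (a * a)}
      one_mem' := ⟨1, one_mem _, by simp⟩
      mul_mem' := by
        rintro _ _ ⟨a, ha, rfl⟩ ⟨b, hb, rfl⟩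
        refine ⟨a * b, mul_mem ha hb, ?_⟩
        rw [hc.comm_mul u ha hb, hc.mul_sq ha hb, mul_assoc, ← mul_assoc (a * a),
          hc _ (mul_mem ha ha) _ (comm_mem_right u hb)]
        group
      inv_mem' := by
        rintro _ ⟨a, ha, rfl⟩
        refine ⟨a⁻¹, inv_mem ha, ?_⟩
        have h1 := hc.comm_mul u ha (inv_mem ha)
        rw [mul_inv_cancel, commutatorElement_one_right] at h1
        rw [← inv_eq_of_mul_eq_one_right h1.symm, ← hc _ (mul_mem ha ha) _ (comm_mem_right u ha)]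
        group }
  have h1 : sqS A ≤ I := by
    refine le_of_nakayama h.pg hc.sqS ?_ fun y hy => ?_
    · rintro _ ⟨a, ha, rfl⟩
      exact mul_mem (sqS_le _ (hcomm a ha)) (sq_mem_sqS ha)
    · obtain ⟨a, ha, rfl⟩ := hc.mem_sqS.1 hy
      obtain ⟨c, hc1, e⟩ := hc.sqS.mem_sqS.1 (inv_mem (hcomm a ha))
      refine ⟨_, ⟨a, ha, rfl⟩, c, hc1, ?_⟩
      rw [e, ← hc _ (mul_mem ha ha) _ (comm_mem_right u ha), mul_inv_cancel_right]
  obtain ⟨a, ha, e⟩ := h1 (inv_mem hu)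
  have h2 : a * u ∈ A := hO (mem_Om_of (by
    calc a * u * (a * u) = a * (⁅u, a⁆ * a) * (u * u) := by rw [commutatorElement_def]; group
      _ = ⁅u, a⁆ * (a * a) * (u * u) := by
          rw [← mul_assoc a, hc _ ha _ (comm_mem_right u ha)]; group
      _ = 1 := by rw [← e]; group))
  exact (mul_mem_cancel_left ha).1 h2

theorem comm_mem_sqS2 {A : Subgroup P} [A.Normal] (hA : InvY Y A) (hc : Comm A) (g : P) {a : P}
    (ha : a ∈ sqS A) : ⁅g, a⁆ ∈ sqS (sqS A) := h.comm_mem_sqS hA.sqS hc.sqS g ha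

end Sz

end Cfsg.Agent.Sz2
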